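import Cfsg.Prelude.Def_SporCoxeter

/-!
# A presentation on involutions
-/

set_option autoImplicit false

namespace Cfsg.Agent.Lib.KnownSimple.MultM.HeL

open Cfsg.Spor

/-- The generators. -/
inductive Gen
  | a
  | b
  | c
  | d
  | e
  | f
  deriving DecidableEq

/-- A generator as a word. -/ abbrev wa : FreeGroup Gen := FreeGroup.of Gen.a
/-- A generator as a word. -/ abbrev wb : FreeGroup Gen := FreeGroup.of Gen.b
/-- A generator as a word. -/ abbrev wc : FreeGroup Gen := FreeGroup.of Gen.c
/-- A generator as a word. -/ abbrev wd : FreeGroup Gen := FreeGroup.of Gen.d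
/-- A generator as a word. -/ abbrev we : FreeGroup Gen := FreeGroup.of Gen.e
/-- A generator as a word. -/ abbrev wf : FreeGroup Gen := FreeGroup.of Gen.f

/-- The graph of the presentation. -/
def edges : List (Gen × ℕ × Gen) :=
  [(.a, 3, .b), (.a, 5, .c), (.a, 17, .d), (.a, 10, .e), (.a, 4, .f), (.b, 5, .c), (.b, 15, .d), (.b, 15, .e), (.b, 10, .f), (.c, 17, .d), (.c, 10, .e), (.c, 6, .f), (.d, 17, .e), (.d, 10, .f), (.e, 12, .f)]

/-- The further relators. -/
def extra : List (FreeGroup Gen) := [
  wa * wb * wc * wb * wc * wa * wc * wb * wc * wa * wc, 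
  wa * wb * wc * wa * wc * wa * wc * wa * wc * wb * wa * wc, 
  wa * wc * wd * wa * wc * wd * wc * wb * wd * wc * wa * wd, 
  wa * wd * wc * wb * wc * wd * wa * wd * wc * wd * wc * wd, 
  wa * wb * we * wa * we * wb * wa * wd * wb * wd * wb * wd, 
  wa * wc * we * wc * wa * wd * wa * wc * we * wc * wa * wd, 
  wb * wc * we * wd * wb * wc * we * wd * wb * wc * we * wd, 
  wa * wb * wf * wa * wc * wd * wc * wb * wf * wd * wc * wa * wd * wc * wb * wd, 
  wa * wb * wf * wb * wa * wd * we * wb * wd * we * wf * we * wd * wb * we * wd, 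
  wa * wb * wf * wb * wd * we * wa * wd * we * wf * wb * wa * wc * wf * wd * we, 
  wa * wb * wd * we * wd * wf * wd * we * wd * wf * wd * wc * wa * wc * wb * wd, 
  wa * wb * wc * wd * wa * we * wa * we * wc * wa * wc * wa * wd * wb * wc * wd, 
  wa * wb * wc * wa * wc * we * wa * we * wc * we * wa * we * wa * wc * wa * wd, 
  wa * wb * wd * wa * wb * wd * we * wa * we * wc * wb * wc * wb * wc * wa * wd, 
  wa * wb * wd * wa * wd * wb * wd * wc * wa * wd * wa * wd * wa * wc * wa * wd, 
  wa * wc * wa * wc * wd * wc * wa * we * wa * we * wb * wd * wb * wc * wa * wd ]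

/-- The presented group. -/
abbrev PJ : Type := CoxPresented Gen edges extra

end Cfsg.Agent.Lib.KnownSimple.MultM.HeL
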