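import Cfsg.Agent.Lib.KnownSimple.MultM.HeL.Bound
import Cfsg.Agent.Lib.KnownSimple.MultM.HeL.NatD
import Cfsg.Agent.Lib.KnownSimple.HeP.Chain

/-!
# The natural representation
-/

set_option autoImplicit false

namespace Cfsg.Agent.Lib.KnownSimple.MultM.HeL

open Cfsg Cfsg.Spor Cfsg.Agent.Lib.Compute Cfsg.Agent.Lib.KnownSimple.PE Cfsg.Agent.Lib.KnownSimple.Leech
open Cfsg.Agent.Lib.KnownSimple Cfsg.Agent.Lib.KnownSimple.AutRigid Cfsg.Agent.Lib.KnownSimple.Pres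
open Cfsg.Agent.Lib.KnownSimple.MultC


abbrev d : ℕ := 6
abbrev N0 : ℕ := 2058
/-- The encoding. -/
abbrev EN : Enc (Fin N0) N0 := encFin N0
theorem hP : IsPres d v (stdRels S) := hPs
/-- The table of the letters. -/
noncomputable abbrev τN : ℕ → ℕ → ℕ := tauP d tn
set_option maxHeartbeats 0 in
set_option maxRecDepth 100000 in
theorem hCN : chkCoset τN d N0 = true := by decide +kernel
/-- The natural table. -/
noncomputable def CN : Coset d N0 := mkCoset τN hCN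
set_option maxHeartbeats 0 in
theorem hok : ∀ r ∈ stdRels S, ∀ l ∈ r, l < 2 * d := words_of_chk (by decide +kernel)
set_option maxHeartbeats 0 in
set_option maxRecDepth 100000 in
theorem hl0 : ∀ r ∈ stdRels S, ∀ i, i < N0 → actW CN.τ r i = i := loops_of_chk (by decide +kernel)
theorem ex0 : ∃ ρ : P →* Equiv.Perm (Fin N0), ∀ x, x < d → ρ (v x) = (CN.p x)⁻¹ := exists_rho hP CN hok hl0
/-- The natural representation. -/
noncomputable def ρ0 : P →* Equiv.Perm (Fin N0) := ex0.choose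
theorem hρ0 : ∀ x, x < d → ρ0 (v x) = (CN.p x)⁻¹ := ex0.choose_spec
/-- The natural representation. -/
noncomputable def ψ : P →* Equiv.Perm (Fin N0) := toX EN ρ0
/-- The generators. -/
noncomputable abbrev lpH : ℕ → Equiv.Perm (Fin N0) := Cfsg.Agent.Lib.KnownSimple.HeP.lp
/-- The codes of the generators. -/
noncomputable abbrev TH : ℕ → ℕ → ℕ := Cfsg.Agent.Lib.KnownSimple.HeP.T
theorem code_H : ∀ k, EN.IsCode (lpH k) (TH k) := fun k => Pres.code_lpOf Cfsg.Agent.Lib.KnownSimple.HeP.hts k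
theorem lpH_mem : ∀ k, lpH k ∈ Cfsg.Agent.Lib.KnownSimple.HeP.H := Cfsg.Agent.Lib.KnownSimple.HeP.lp_mem

/-- The letters in terms of the earlier letters. -/
def wOL : List (List ℕ) := [[0,2,4,5,0,2,6,5,0,5,0,1,3,6,5,0,5,6,3,0,5,0,5,6,4,2],
  [5,0,6,5,0,2,3,0,1,5,0,5,0,6,5,0,2,3,0,5,4,6,0,2,1,0,5,2,0],
  [1,2,5,0,5,6,4,5,0,2,3,0,5,0,6,5,0,3,2,0,5,4,6,5,0,5,2,1],
  [2,0,5,6,5,0,1,2,0,5,3,0,2,1,0,5,6,5,0,2,0],
  [3,4,5,0,6,5,0,1,5,0,2,3,0,5,6,0,5,0,5,2,0,5,3,0,5,6,5,1,0,2,1],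
  [3,0,5,0,5,6,5,0,3,5,0,1,3,0,5,6,0,5,4,6,0,5,0,3]]
/-- The earlier letters in terms of the letters. -/
def wNL : List (List ℕ) := [[10,8,0,10,0,10,8,10],
  [6,0,10,2,4,0,10,0,2,6,10,4,6,8],
  [4,0,10,4,0,8,0,6,0,8,0,2,10,0,4],
  [6,10,2,4,6,8,4,6,2,4,6,10,6,8],
  [8,0,4,0,8,10,8,0,4,0,8],
  [8,0,4,2,0,6,0,10,6,4,2,8,0],
  [2,6,2,6,8,2,10,8,6,4,6,4,6,10]]
set_option maxHeartbeats 0 in
set_option maxRecDepth 100000 in
theorem hchkO : allBelow (fun x => allBelow (fun i => Nat.beq (cevL TH (lg [] wOL x) i) (actW CN.τ (invW [2 * x]) i)) N0) d = true := by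
  decide +kernel
set_option maxHeartbeats 0 in
set_option maxRecDepth 100000 in
theorem hchkN : allBelow (fun k => allBelow (fun i => Nat.beq (TH k i) (actW CN.τ (invW (lg [] wNL k)) i)) N0) 7 = true := by
  decide +kernel
theorem hwN : ∀ k, k < 7 → ∀ l ∈ lg [] wNL k, l < 2 * d := by
  have h : allBelow (fun k => (lg [] wNL k).all fun l => Nat.blt l (2 * d)) 7 = true := by decide +kernel
  intro k hk l hl
  have h1 := List.all_eq_true.1 ((allBelow_iff _ _).1 h k hk) l hl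
  simpa [Nat.blt_eq] using h1
theorem hmem : ∀ x, x < d → ψ (v x) ∈ Cfsg.Agent.Lib.KnownSimple.HeP.H := by
  intro x hx
  have hw : ∀ l ∈ [2 * x], l < 2 * d := by
    intro l hl
    rw [List.mem_singleton] at hl
    omega
  have h1 := code_list EN (lp := lpH) (T := TH) code_H (lg [] wOL x)
  have e1 := toX_word EN CN hρ0 hw h1 ((allBelow_iff _ _).1 hchkO x hx)
  have e2 : ev v [2 * x] = v x := by
    rw [ev_cons, ev_nil, mul_one]
    exact lv_two v x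
  rw [e2] at e1
  show toX EN ρ0 (v x) ∈ Cfsg.Agent.Lib.KnownSimple.HeP.H
  rw [← e1]
  apply Subgroup.list_prod_mem
  intro a ha
  obtain ⟨k, _, rfl⟩ := List.mem_map.1 ha
  exact lpH_mem k
theorem hR (k : ℕ) (hk : k < 7) : lpH k ∈ ψ.range := by
  have e1 := toX_word EN CN hρ0 (hwN k hk) (code_H k) ((allBelow_iff _ _).1 hchkN k hk)
  exact ⟨_, e1.symm⟩
theorem hTr : ∀ t ∈ (Cfsg.Agent.Lib.KnownSimple.HeP.lp '' {k | k < 7}), t ∈ ψ.range := by
  rintro _ ⟨k, hk, rfl⟩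
  exact hR k hk
theorem hT : ∀ σ ∈ Cfsg.Agent.Lib.KnownSimple.HeP.H, σ ∈ Subgroup.closure (Cfsg.Agent.Lib.KnownSimple.HeP.lp '' {k | k < 7}) := by
  intro σ hσ
  exact (Cfsg.Agent.Lib.KnownSimple.HeP.S.range_le Cfsg.Agent.Lib.KnownSimple.HeP.hts Cfsg.Agent.Lib.KnownSimple.HeP.φ_v (K := Subgroup.closure (Cfsg.Agent.Lib.KnownSimple.HeP.lp '' {k | k < 7})) (fun k hk => Subgroup.subset_closure ⟨k, hk, rfl⟩)) hσ

theorem hle : Nat.card P ≤ Nat.card ↥Cfsg.Agent.Lib.KnownSimple.HeP.H := by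
  rw [Cfsg.Agent.Lib.KnownSimple.HeP.card_H]
  exact finite_P.2
theorem ex_e : ∃ e : P ≃* ↥Cfsg.Agent.Lib.KnownSimple.HeP.H, ∀ u, (e u : Equiv.Perm (Fin N0)) = ψ u := exists_equiv hP ψ Cfsg.Agent.Lib.KnownSimple.HeP.H hmem _ hT hTr hle
/-- The isomorphism. -/
noncomputable def e : P ≃* ↥Cfsg.Agent.Lib.KnownSimple.HeP.H := ex_e.choose
theorem he : ∀ u, (e u : Equiv.Perm (Fin N0)) = ψ u := ex_e.choose_spec
theorem hψinj : Function.Injective ψ := fun a b h => e.injective (Subtype.ext (by rw [he, he, h]))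
theorem hρ0inj : Function.Injective ρ0 := by
  intro a b hab
  apply hψinj
  show toX EN ρ0 a = toX EN ρ0 b
  have : ∀ u, toX EN ρ0 u = (Equiv.permCongrHom (finEquiv EN)).toMonoidHom (ρ0 u) := fun _ => rfl
  rw [this, this, hab]
theorem card_P : Nat.card P = 4030387200 := by
  rw [Nat.card_congr e.toEquiv, Cfsg.Agent.Lib.KnownSimple.HeP.card_H]

end Cfsg.Agent.Lib.KnownSimple.MultM.HeL
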