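import Cfsg.Agent.Lib.KnownSimple.MultM.HeL.Nat

/-!
# The subgroup of the first letters
-/

set_option autoImplicit false

namespace Cfsg.Agent.Lib.KnownSimple.MultM.HeL

open Cfsg Cfsg.Spor Cfsg.Agent.Lib.Compute Cfsg.Agent.Lib.KnownSimple.PE Cfsg.Agent.Lib.KnownSimple.Leech
open Cfsg.Agent.Lib.KnownSimple Cfsg.Agent.Lib.KnownSimple.AutRigid Cfsg.Agent.Lib.KnownSimple.Pres
open Cfsg.Agent.Lib.KnownSimple.MultC


theorem hsub : ∃ f : Cfsg.Agent.Lib.KnownSimple.MultM.S44H.P →* P, (∀ x, x < 5 → f (Cfsg.Agent.Lib.KnownSimple.MultM.S44H.v x) = v x) ∧ Function.Injective f ∧ Nat.card Cfsg.Agent.Lib.KnownSimple.MultM.S44H.P = 979200 :=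
  nest_iso hPU hrelU Cfsg.Agent.Lib.KnownSimple.MultM.S44H.finite_P.2 finite_top.2 (by rw [card_P]) (by norm_num)
/-- The inclusion. -/
noncomputable def fU : Cfsg.Agent.Lib.KnownSimple.MultM.S44H.P →* P := hsub.choose
theorem hfU : ∀ x, x < 5 → fU (Cfsg.Agent.Lib.KnownSimple.MultM.S44H.v x) = v x := hsub.choose_spec.1
theorem finj : Function.Injective fU := hsub.choose_spec.2.1
theorem hcardU : Nat.card Cfsg.Agent.Lib.KnownSimple.MultM.S44H.P = 979200 := hsub.choose_spec.2.2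
theorem cardLS : Nat.card (Subgroup.closure (v '' {g | g < 5})) = 979200 := by
  rw [← hcardU]
  exact card_LS_eq hPU hfU finj

end Cfsg.Agent.Lib.KnownSimple.MultM.HeL
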